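import Cfsg.Agent.R2.T1.N7C.Bnd
import Cfsg.Agent.R2.T1.Odd.El
import Cfsg.Agent.R2.T1.Inf.Cov

/-!
# S5929, box sev3c: elements of order 7 in the cover of `A₇`, characteristic 3 (helper6)

* `exists_wr` : the lifts of the 3-cycles satisfy the relations `WR`;
* `d7_lt` : `dim V^y < 8` for `y` of order 7.
-/

set_option autoImplicit false
set_option maxRecDepth 100000

namespace Cfsg.Agent.R2.T1.N7C

open Equiv Module Cfsg Cfsg.Lie
open Cfsg.Agent.R2.T1.Odd
open Cfsg.Agent.Lib.AltCarmichael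
open Cfsg.Agent.H943.E7V.Block (D1 rho)
open Cfsg.Agent.H952.F4 (ev es matRep MaxAlt)
open Cfsg.Agent.H944.E6T (ev_conj)

universe u

variable {F : Type u} [Field F]

/-- the 3-cycles -/
def cc (i : ℕ) : ↥(alternatingGroup (Fin 7)) := if h : i < 5 then ⟨cyc 5 i, cyc_mem 5 i h⟩ else 1

theorem cc_coe {i : ℕ} (h : i < 5) : (cc i : Perm (Fin 7)) = cyc 5 i := by
  unfold cc
  rw [dif_pos h]

theorem cc_cube (i : ℕ) : cc i ^ 3 = 1 := by
  unfold cc
  split_ifs with h
  · exact Subtype.ext ((rel_cyc 5).cube i h)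
  · exact one_pow 3

theorem cc_prod {i j : ℕ} (hi : i < 5) (hj : j < 5) (hij : i ≠ j) : (cc i * cc j) ^ 2 = 1 := by
  apply Subtype.ext
  show ((cc i : Perm (Fin 7)) * (cc j : Perm (Fin 7))) ^ 2 = 1
  rw [cc_coe hi, cc_coe hj]
  exact (rel_cyc 5).sq i hi j hj hij

/-- **the lifts of the 3-cycles** -/
theorem exists_wr {φ : ↥(alternatingGroup (Fin 7)) →* ↥(chevE7.group F)} (hφ : Function.Injective φ) (hc : Cover φ) :
    ∃ (g : ℕ → Gh F) (z : Gh F), WR 5 g z ∧ V F z = -1 ∧ ∀ i, ad F (g i) = φ (cc i) := by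
  have hex : ∀ i : ℕ, ∃ y : Gh F, ad F y = φ (cc i) ∧ y ^ 3 = 1 := fun i =>
    odd_lift (k := 3) (by decide) (by rw [← map_pow, cc_cube, map_one])
  choose g hg hg3 using hex
  have hs : ∀ i < 5, ∀ j < 5, i ≠ j → V F ((g i * g j) * (g i * g j)) = -1 := by
    intro i hi j hj hij
    refine hc.sq (a := cc i * cc j) (by norm_num) hφ ?_ (by rw [map_mul, hg, hg, map_mul])
    show ((cc i : Perm (Fin 7)) * (cc j : Perm (Fin 7))).cycleType = {2, 2}
    rw [cc_coe hi, cc_coe hj]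
    exact cyc_mul hi hj hij
  have h01 := hs 0 (by norm_num) 1 (by norm_num) (by norm_num)
  have hz1 : ad F ((g 0 * g 1) * (g 0 * g 1)) = 1 := by
    rw [map_mul, map_mul, hg, hg, ← map_mul, ← map_mul, ← pow_two, cc_prod (by norm_num) (by norm_num) (by norm_num), map_one]
  refine ⟨g, (g 0 * g 1) * (g 0 * g 1), ⟨fun i _ => ker_comm hz1 (g i), ker_sq hz1, fun i _ => hg3 i,
    fun i hi j hj hij => ?_⟩, h01, hg⟩
  rw [pow_two]
  exact V_injective ((hs i hi j hj hij).trans h01.symm)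

/-- the images of the words -/
theorem ad_wd {φ : ↥(alternatingGroup (Fin 7)) →* ↥(chevE7.group F)} {g : ℕ → Gh F} (hg : ∀ i, ad F (g i) = φ (cc i))
    (w : List ℕ) : ad F (wd g w) = φ (wd cc w) := by
  induction w with
  | nil => rw [wd_nil, wd_nil, map_one, map_one]
  | cons i w ih =>
    rw [wd_cons, wd_cons, map_mul, map_mul, ih]
    congr 1
    unfold lt
    split_ifs
    · exact hg i
    · rw [map_mul, map_mul, hg]

/-- the fixed points of the lift of a special element of order 7 -/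
theorem d7_wy [Finite F] (h3 : (3 : F) = 0) {φ : ↥(alternatingGroup (Fin 7)) →* ↥(chevE7.group F)}
    (hφ : Function.Injective φ) {g : ℕ → Gh F} {z : Gh F} (hR : WR 5 g z) (hz : V F z = -1)
    (hg : ∀ i, ad F (g i) = φ (cc i)) : ev (V F (wd g wx0)) 1 = 16 ∧ ev (V F (wd g wy)) 1 ≤ 6 := by
  have h2 : (2 : F) ≠ 0 := by
    intro h
    have : (1 : F) = 3 - 2 := by norm_num
    rw [h3, h, sub_zero] at this
    exact one_ne_zero this
  have h5 : (5 : F) ≠ 0 := by
    intro h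
    have : (2 : F) = 5 - 3 := by norm_num
    rw [h3, h, sub_zero] at this
    exact h2 this
  have hx5 : wd g wx0 ^ 5 = 1 := word_pow hR k_x5
  have hgx : wd g wg * wd g wx0 * (wd g wg)⁻¹ = wd g wx0 ^ 2 := by
    have h := word_eq hR k_g
    rw [wd_append, wd_append, wd_rp] at h
    rw [h, mul_inv_cancel_right]
  have hx1 : wd g wx0 ≠ 1 := by
    intro h
    have h1 := ad_wd hg wx0
    rw [h, map_one] at h1
    have h4 : wd cc wx0 = 1 := hφ (by rw [← h1, map_one])
    have h6 := congrArg (fun t : ↥(alternatingGroup (Fin 7)) => (t : Perm (Fin 7)) 0) h4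
    revert h6
    decide +kernel
  have e16 := five_rat h5 hx5 hx1 hgx
  refine ⟨e16, ?_⟩
  obtain ⟨b1, b2⟩ := bound (V F) h3 hR (neg_apply hz)
  rw [e16, finrank_V] at b1
  omega

/-- `i ↦ 3 i` -/
def pn : Perm (Fin 7) := swap 1 3 * swap 3 2 * swap 2 6 * swap 6 4 * swap 4 5

theorem pn_sign : Perm.sign pn = -1 := by
  unfold pn
  rw [map_mul, map_mul, map_mul, map_mul, Perm.sign_swap (by decide), Perm.sign_swap (by decide),
    Perm.sign_swap (by decide), Perm.sign_swap (by decide), Perm.sign_swap (by decide)]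
  rfl

theorem pn_conj : pn * ((wd cc wy : ↥(alternatingGroup (Fin 7))) : Perm (Fin 7)) * pn⁻¹ =
    ((wd cc wy : ↥(alternatingGroup (Fin 7))) : Perm (Fin 7)) ^ 3 := by decide +kernel

theorem ord7 {q : ↥(alternatingGroup (Fin 7))} (hq : q ^ 7 = 1) (hq1 : q ≠ 1) : (q : Perm (Fin 7)).cycleType = {7} := by
  have h1 : orderOf (q : Perm (Fin 7)) = 7 := by
    have : Fact (Nat.Prime 7) := ⟨by norm_num⟩
    exact (Subgroup.orderOf_coe q).trans (orderOf_eq_prime hq hq1)
  obtain ⟨n, hn⟩ := Perm.cycleType_prime_order (σ := (q : Perm (Fin 7))) (by rw [h1]; norm_num)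
  have h2 := Perm.sum_cycleType (q : Perm (Fin 7))
  rw [hn, h1, Multiset.sum_replicate, smul_eq_mul] at h2
  have h3 : (q : Perm (Fin 7)).support.card ≤ 7 := by
    have := Finset.card_le_univ (q : Perm (Fin 7)).support
    rwa [Fintype.card_fin] at this
  have h4 : n = 0 := by omega
  rw [hn, h4, h1]
  rfl

theorem wy7 : (wd cc wy) ^ 7 = 1 := Subtype.ext (by decide +kernel)

theorem wy1 : wd cc wy ≠ 1 := by
  intro h
  have h6 := congrArg (fun t : ↥(alternatingGroup (Fin 7)) => (t : Perm (Fin 7)) 0) h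
  revert h6
  decide +kernel

/-- elements of order 7 -/
theorem conj7 {q : ↥(alternatingGroup (Fin 7))} (hq : q ^ 7 = 1) (hq1 : q ≠ 1) :
    ∃ c : ↥(alternatingGroup (Fin 7)), c * wd cc wy * c⁻¹ = q ∨ c * wd cc wy * c⁻¹ = q ^ 3 := by
  obtain ⟨c, hc⟩ := isConj_iff.mp (Perm.isConj_iff_cycleType_eq.mpr ((ord7 wy7 wy1).trans (ord7 hq hq1).symm))
  rcases Int.units_eq_one_or (Perm.sign c) with hs | hs
  · exact ⟨⟨c, Perm.mem_alternatingGroup.mpr hs⟩, Or.inl (Subtype.ext hc)⟩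
  · refine ⟨⟨c * pn, Perm.mem_alternatingGroup.mpr (by rw [map_mul, hs, pn_sign]; rfl)⟩, Or.inr (Subtype.ext ?_)⟩
    have h1 : c * pn * ((wd cc wy : ↥(alternatingGroup (Fin 7))) : Perm (Fin 7)) * (c * pn)⁻¹ =
        c * (pn * ((wd cc wy : ↥(alternatingGroup (Fin 7))) : Perm (Fin 7)) * pn⁻¹) * c⁻¹ := by
      group
    refine h1.trans ?_
    rw [pn_conj, ← conj_pow, hc]
    rfl

/-- **elements of order 7 in the cover of `A₇`, characteristic 3** -/
theorem d7_le [Finite F] (h3 : (3 : F) = 0) {φ : ↥(alternatingGroup (Fin 7)) →* ↥(chevE7.group F)}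
    (hφ : Function.Injective φ) (hc : Cover φ) {q : ↥(alternatingGroup (Fin 7))} (hq1 : q ≠ 1) {y : Gh F}
    (hy : ad F y = φ q) (hy7 : y ^ 7 = 1) : ev (V F y) 1 ≤ 6 := by
  obtain ⟨g, z, hR, hz, hg⟩ := exists_wr hφ hc
  have hq : q ^ 7 = 1 := hφ (by rw [map_pow, ← hy, ← map_pow, hy7, map_one, map_one])
  have h6 := (d7_wy h3 hφ hR hz hg).2
  have hw7 : wd g wy ^ 7 = 1 := word_pow hR chk_y7
  obtain ⟨c, h⟩ := conj7 hq hq1
  obtain ⟨x, hx⟩ := ad_surjective (φ c)
  rcases h with h | h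
  · have h1 : x * wd g wy * x⁻¹ = y := by
      refine odd_unique (k := 7) (by decide) ?_ ?_ hy7
      · rw [map_mul, map_mul, map_inv, hx, ad_wd hg, hy, ← h, map_mul, map_mul, map_inv]
      · rw [conj_pow, hw7, mul_one, mul_inv_cancel]
    rw [← h1, ev_conj]
    exact h6
  · have h1 : x * wd g wy * x⁻¹ = y ^ 3 := by
      refine odd_unique (k := 7) (by decide) ?_ ?_ ?_
      · rw [map_mul, map_mul, map_inv, hx, ad_wd hg, map_pow, hy, ← map_pow, ← h, map_mul, map_mul, map_inv]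
      · rw [conj_pow, hw7, mul_one, mul_inv_cancel]
      · rw [← pow_mul, mul_comm, pow_mul, hy7, one_pow]
    have h2 := ev_pow_eq (T := V F y) (N := 7) (a := 3) (b := 5) (by rw [← map_pow, hy7, map_one]) (ζ := 1) (one_pow 7)
      (by norm_num) (by norm_num) 1
    rw [one_pow, one_pow, ← map_pow, ← h1, ev_conj] at h2
    rw [← h2]
    exact h6

end Cfsg.Agent.R2.T1.N7C
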